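import Cfsg.Agent.H41.HeTC.Ku.RChk0

set_option autoImplicit false
set_option linter.all false

namespace Cfsg.Agent.H41.HeP

open Cfsg.Agent.H35

theorem tku_rall : ∀ p, p < 1340 → tku_rf p = true := by
  apply allR_blocks tku_rf 1340 11 1 _ (by decide)
  intro k hk
  interval_cases k
  · exact tku_rchk_0

theorem tku_circ_ok : circChk (fullW ku_rws ku_prels) tku_circT 0 tku_ccert = true := by decide +kernel
theorem tku_hc_ok : allR (fun c => hcChk tku_rsw tku_hc1T tku_hc2T c) 2 1 0 = true := by decide +kernel
theorem tku_h0 : RData.aord (tku_rd.ent 0 1) = 0 := by decide +kernel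

end Cfsg.Agent.H41.HeP
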