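import Cfsg.Agent.H41.HeTC.Ku.RTab

set_option autoImplicit false
set_option linter.all false
set_option Elab.async false

namespace Cfsg.Agent.H41.HeP

open Cfsg.Agent.H35

theorem tku_rchk_0 : allR tku_rf 1340 11 (0 * 2 ^ 11) = true := by decide +kernel

end Cfsg.Agent.H41.HeP
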